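import Mathlib

/-! The monomial representation over F3 of a plus-type extraspecial 2-group, given by forms (helper19). -/

namespace Cfsg.Agent.Lib.LocalP2.Heis

variable {n : ℕ}

/-- Coordinates: half of the space. -/
abbrev Half (n : ℕ) : Type := Fin n → ZMod 2

/-- The space. -/
abbrev Sp (n : ℕ) : Type := Half n × Half n

/-- The sign of a bit. -/
def sgn (a : ZMod 2) : ZMod 3 := if a = 0 then 1 else -1

theorem sgn_add : ∀ a b : ZMod 2, sgn (a + b) = sgn a * sgn b := by decide

theorem sgn_ne_zero : ∀ a : ZMod 2, sgn a ≠ 0 := by decide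

theorem sgn_inj : ∀ a b : ZMod 2, sgn a = sgn b → a = b := by decide

theorem sgn_zero : sgn 0 = 1 := by decide

theorem sum_sgn {M : Type*} [AddCommGroup M] [Module (ZMod 2) M] [Fintype M] (f : M →ₗ[ZMod 2] ZMod 2)
    (hf : f ≠ 0) : ∑ x, sgn (f x) = 0 := by
  obtain ⟨x₀, hx₀⟩ : ∃ x₀, f x₀ = 1 := by
    by_contra h
    push Not at h
    exact hf (LinearMap.ext fun x => ((show ∀ a : ZMod 2, a ≠ 1 → a = 0 by decide) _ (h x)))
  have h1 : ∑ x, sgn (f x) = ∑ x, -sgn (f x) := by
    refine Fintype.sum_equiv (Equiv.addRight x₀) _ _ fun x => ?_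
    simp only [Equiv.coe_addRight, map_add, hx₀, sgn_add]
    have : sgn (1 : ZMod 2) = -1 := by decide
    rw [this]; ring
  rw [Finset.sum_neg_distrib] at h1
  exact (show ∀ a : ZMod 3, a = -a → a = 0 by decide) _ h1

theorem two_pow_ne (k : ℕ) : ((2 : ZMod 3) ^ k) ≠ 0 := pow_ne_zero _ (by decide)

/-- The data: a bilinear cocycle `B(w,t') + C(t,t')` with `B` separating. -/
structure Data (n : ℕ) where
  B : Half n →ₗ[ZMod 2] Half n →ₗ[ZMod 2] ZMod 2
  C : Half n →ₗ[ZMod 2] Half n →ₗ[ZMod 2] ZMod 2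
  sepL : ∀ w, (∀ t, B w t = 0) → w = 0
  sepR : ∀ t, (∀ w, B w t = 0) → t = 0

variable (D : Data n)

/-- The cocycle. -/
def Data.β : Sp n →ₗ[ZMod 2] Sp n →ₗ[ZMod 2] ZMod 2 :=
  D.B.compl₁₂ (LinearMap.fst _ _ _) (LinearMap.snd _ _ _) + D.C.compl₁₂ (LinearMap.snd _ _ _) (LinearMap.snd _ _ _)

theorem Data.β_apply (u v : Sp n) : D.β u v = D.B u.1 v.2 + D.C u.2 v.2 := rfl

/-- The commutator form. -/
def Data.pol (u v : Sp n) : ZMod 2 := D.β u v + D.β v u

/-- The operator of `(u, c)`. -/
def Data.op (u : Sp n) (c : ZMod 2) : Module.End (ZMod 3) (Half n → ZMod 3) where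
  toFun f s := sgn (c + D.C s u.2 + D.B u.1 (s + u.2)) * f (s + u.2)
  map_add' f g := by ext s; simp [mul_add]
  map_smul' a f := by ext s; simp; ring

theorem Data.op_apply (u : Sp n) (c : ZMod 2) (f : Half n → ZMod 3) (s : Half n) :
    D.op u c f s = sgn (c + D.C s u.2 + D.B u.1 (s + u.2)) * f (s + u.2) := rfl

theorem Data.op_mul (u v : Sp n) (c d : ZMod 2) :
    D.op u c * D.op v d = D.op (u + v) (c + d + D.β u v) := by
  refine LinearMap.ext fun f => funext fun s => ?_
  rw [Module.End.mul_apply, D.op_apply, D.op_apply, D.op_apply, ← mul_assoc, ← sgn_add, D.β_apply]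
  congr 1
  · congr 1
    simp only [Prod.fst_add, Prod.snd_add, map_add, LinearMap.add_apply]
    have h2 : ∀ a : ZMod 2, a + a = 0 := by decide
    linear_combination (norm := ring_nf) -h2 (D.B u.1 v.2)
  · congr 1
    simp only [Prod.snd_add]
    abel

theorem Data.op_zero : D.op 0 0 = 1 := by
  refine LinearMap.ext fun f => funext fun s => ?_
  simp [D.op_apply, sgn_zero]

/-- The operator as a unit. -/
def Data.X (u : Sp n) (c : ZMod 2) : (Module.End (ZMod 3) (Half n → ZMod 3))ˣ where
  val := D.op u c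
  inv := D.op u (c + D.β u u)
  val_inv := by
    rw [D.op_mul, ← D.op_zero]
    congr 1
    · exact ZModModule.add_self u
    · exact (show ∀ a b : ZMod 2, a + (a + b) + b = 0 by decide) _ _
  inv_val := by
    rw [D.op_mul, ← D.op_zero]
    congr 1
    · exact ZModModule.add_self u
    · exact (show ∀ a b : ZMod 2, a + b + a + b = 0 by decide) _ _

theorem Data.X_mul (u v : Sp n) (c d : ZMod 2) : D.X u c * D.X v d = D.X (u + v) (c + d + D.β u v) :=
  Units.ext (D.op_mul u v c d)

theorem Data.X_apply (u : Sp n) (c : ZMod 2) (f : Half n → ZMod 3) (s : Half n) :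
    (D.X u c : Module.End (ZMod 3) (Half n → ZMod 3)) f s =
      sgn (c + D.C s u.2 + D.B u.1 (s + u.2)) * f (s + u.2) := rfl

theorem Data.X_zero : D.X 0 0 = 1 := Units.ext D.op_zero

theorem Data.X_scalar (c : ZMod 2) :
    (D.X 0 c : Module.End (ZMod 3) (Half n → ZMod 3)) = sgn c • 1 := by
  refine LinearMap.ext fun f => funext fun s => ?_
  simp [D.X_apply]

theorem Data.X_scalar_comm (c : ZMod 2) (M : (Module.End (ZMod 3) (Half n → ZMod 3))ˣ) :
    D.X 0 c * M = M * D.X 0 c := by
  refine Units.ext ?_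
  rw [Units.val_mul, Units.val_mul, D.X_scalar]
  simp

theorem Data.X_eq (u : Sp n) (c : ZMod 2) : D.X u c = D.X 0 c * D.X u 0 := by
  rw [D.X_mul]; simp

theorem Data.X_swap (u v : Sp n) (c d : ZMod 2) :
    D.X u c * D.X v d = D.X 0 (D.pol u v) * (D.X v d * D.X u c) := by
  rw [D.X_mul, D.X_mul, D.X_mul, zero_add, add_comm u v]
  congr 1
  simp only [map_zero, LinearMap.zero_apply, Data.pol]
  exact (show ∀ c d x y : ZMod 2, c + d + x = x + y + (d + c + y) + 0 by decide) _ _ _ _

/-- The point mass. -/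
def delta (t : Half n) : Half n → ZMod 3 := Pi.single t 1

theorem Data.X_delta (u : Sp n) (c : ZMod 2) (t : Half n) :
    (D.X u c : Module.End (ZMod 3) (Half n → ZMod 3)) (delta t) =
      sgn (c + D.C (t + u.2) u.2 + D.B u.1 t) • delta (t + u.2) := by
  funext s
  have e : s + u.2 = t ↔ s = t + u.2 := by
    constructor <;> intro h <;> subst h <;> simp [add_assoc, ZModModule.add_self]
  rw [D.X_apply, delta, delta, Pi.smul_apply, smul_eq_mul]
  by_cases h : s = t + u.2
  · subst h
    have h' : t + u.2 + u.2 = t := by rw [add_assoc, ZModModule.add_self, add_zero]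
    rw [h']; simp
  · rw [Pi.single_eq_of_ne h, Pi.single_eq_of_ne (fun h' => h (e.1 h'))]
    simp

theorem Data.X_injective {u v : Sp n} {c d : ZMod 2} (h : D.X u c = D.X v d) : u = v ∧ c = d := by
  have key : ∀ t, sgn (c + D.C (t + u.2) u.2 + D.B u.1 t) • delta (t + u.2) =
      sgn (d + D.C (t + v.2) v.2 + D.B v.1 t) • delta (t + v.2) := fun t => by
    rw [← D.X_delta, ← D.X_delta, h]
  have h2 : u.2 = v.2 := by
    by_contra hne
    have := congrFun (key 0) (0 + u.2)
    simp [delta, hne] at this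
    exact sgn_ne_zero _ this
  have h3 : ∀ t, c + D.B u.1 t = d + D.B v.1 t := fun t => by
    have := congrFun (key t) (t + v.2)
    rw [h2] at this
    simp [delta] at this
    have := sgn_inj _ _ this
    exact (show ∀ a b x y z : ZMod 2, a + x + y = b + x + z → a + y = b + z by decide) _ _ _ _ _ this
  have hcd : c = d := by simpa using h3 0
  subst hcd
  refine ⟨Prod.ext (sub_eq_zero.1 (D.sepL _ fun t => ?_)) h2, rfl⟩
  rw [map_sub, LinearMap.sub_apply, sub_eq_zero]
  exact add_left_cancel (h3 t)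

theorem Data.pol_sep {u : Sp n} (h : ∀ v, D.pol u v = 0) : u = 0 := by
  have h2 : u.2 = 0 := D.sepR _ fun w => by
    have := h (w, 0)
    simpa [Data.pol, D.β_apply] using this
  have h1 : u.1 = 0 := D.sepL _ fun t => by
    have := h (0, t)
    simpa [Data.pol, D.β_apply, h2] using this
  exact Prod.ext h1 h2

/-- `pol` as a bilinear map. -/
def Data.polL : Sp n →ₗ[ZMod 2] Sp n →ₗ[ZMod 2] ZMod 2 := D.β + D.β.flip

theorem Data.exists_pol_eq (f : Sp n →ₗ[ZMod 2] ZMod 2) : ∃ u₀, ∀ u, D.pol u₀ u = f u := by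
  have hinj : Function.Injective D.polL := by
    rw [injective_iff_map_eq_zero]
    exact fun u hu => D.pol_sep fun v => LinearMap.congr_fun hu v
  have hsurj : Function.Surjective D.polL :=
    (LinearMap.injective_iff_surjective_of_finrank_eq_finrank (by rw [Subspace.dual_finrank_eq])).1 hinj
  obtain ⟨u₀, hu₀⟩ := hsurj f
  exact ⟨u₀, fun u => LinearMap.congr_fun hu₀ u⟩

theorem Data.sum_B (s t : Half n) (hst : s ≠ t) : ∑ w : Half n, sgn (D.B w s + D.B w t) = 0 := by
  have hne : D.B.flip (s + t) ≠ 0 := fun h0 => hst (by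
    have := D.sepR (s + t) fun w => LinearMap.congr_fun h0 w
    rwa [← sub_eq_zero, ZModModule.sub_eq_add])
  rw [← sum_sgn _ hne]
  simp

/-- Every operator commuting with the representation is a scalar. -/
theorem Data.scalar_of_commute (M : Module.End (ZMod 3) (Half n → ZMod 3))
    (hM : ∀ u, M * (D.X u 0 : Module.End (ZMod 3) (Half n → ZMod 3)) = (D.X u 0 : Module.End (ZMod 3) _) * M) :
    ∃ a : ZMod 3, M = a • 1 := by
  have hM' : ∀ u f, M ((D.X u 0 : Module.End (ZMod 3) (Half n → ZMod 3)) f) = (D.X u 0 : Module.End (ZMod 3) _) (M f) :=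
    fun u f => LinearMap.congr_fun (hM u) f
  refine ⟨M (delta 0) 0, ?_⟩
  have h0 : M (delta 0) = M (delta 0) 0 • delta 0 := by
    funext s
    by_cases hs : s = 0
    · subst hs; simp [delta]
    · obtain ⟨w, hw⟩ : ∃ w, D.B w s ≠ 0 := by
        by_contra h
        push Not at h
        exact hs (D.sepR s h)
      have h1 := congrFun (hM' (w, 0) (delta 0)) s
      rw [D.X_delta, map_smul, D.X_apply] at h1
      simp [sgn_zero] at h1
      have : D.B w s = 1 := (show ∀ a : ZMod 2, a ≠ 0 → a = 1 by decide) _ hw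
      rw [this, show sgn 1 = -1 by decide] at h1
      have h2 := (show ∀ a : ZMod 3, a = -1 * a → a = 0 by decide) _ h1
      rw [Pi.smul_apply, h2]
      simp [delta, hs]
  refine (Pi.basisFun (ZMod 3) (Half n)).ext fun t => ?_
  rw [Pi.basisFun_apply]
  show M (delta t) = M (delta 0) 0 • delta t
  have h1 := hM' (0, t) (delta 0)
  rw [D.X_delta, map_smul, h0, map_smul, D.X_delta] at h1
  simp only [zero_add] at h1
  rw [smul_comm] at h1
  exact smul_right_injective _ (sgn_ne_zero _) h1

/-- Any family obeying the same law through an isometry is conjugate to the representation. -/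
theorem Data.exists_intertwiner (g : Sp n ≃ₗ[ZMod 2] Sp n) (lam : Sp n → ZMod 2)
    (hlam : ∀ u v, lam (u + v) = lam u + lam v + D.β (g u) (g v) + D.β u v) :
    ∃ M : (Module.End (ZMod 3) (Half n → ZMod 3))ˣ, ∀ u c, M * D.X u c = D.X (g u) (c + lam u) * M := by
  classical
  let Y : Sp n → ZMod 2 → Module.End (ZMod 3) (Half n → ZMod 3) := fun u c => D.op (g u) (c + lam u)
  have hY : ∀ u v c d, Y u c * Y v d = Y (u + v) (c + d + D.β u v) := fun u v c d => by
    simp only [Y, D.op_mul, map_add, hlam]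
    congr 1
    exact (show ∀ a b p q e f : ZMod 2, a + p + (b + q) + e = a + b + f + (p + q + e + f) by decide) _ _ _ _ _ _
  have hlam0 : lam 0 = 0 := by simpa using hlam 0 0
  have hY0 : ∀ c, Y 0 c = sgn c • 1 := fun c => by
    simp only [Y, map_zero, hlam0, add_zero]
    exact D.X_scalar c
  -- the averaging operator over the first half is nonzero
  let P := ∑ w : Half n, Y (w, 0) 0
  have hPne : P ≠ 0 := by
    intro hP
    have hsum : ∑ u : Sp n, (D.op u 0 * P * D.op u (D.β u u)) = (2 : ZMod 3) ^ (2 * n) • (1 : Module.End (ZMod 3) _) := by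
      have hterm : ∀ (u : Sp n) (w : Half n), D.op u 0 * Y (w, 0) 0 * D.op u (D.β u u) =
          sgn (D.pol u (g (w, 0))) • Y (w, 0) 0 := by
        intro u w
        have e2 : D.op u 0 * D.op u (D.β u u) = 1 := by
          rw [D.op_mul, ← D.op_zero]
          congr 1
          · exact ZModModule.add_self u
          · exact (show ∀ b : ZMod 2, 0 + b + b = 0 by decide) _
        have e1 := congrArg Units.val (D.X_swap u (g (w, 0)) 0 (0 + lam (w, 0)))
        simp only [Units.val_mul, D.X_scalar, smul_mul_assoc, one_mul] at e1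
        show D.op u 0 * D.op (g (w, 0)) (0 + lam (w, 0)) * _ = _
        rw [show D.op u 0 * D.op (g (w, 0)) (0 + lam (w, 0)) = _ from e1]
        simp only [smul_mul_assoc, mul_assoc]
        show sgn _ • (D.op (g (w, 0)) (0 + lam (w, 0)) * (D.op u 0 * _)) = _
        rw [e2, mul_one]
      simp only [P, Finset.mul_sum, Finset.sum_mul, hterm]
      rw [Finset.sum_comm]
      simp only [← Finset.sum_smul]
      rw [Finset.sum_eq_single (0 : Half n)]
      · rw [show ((0 : Half n), (0 : Half n)) = (0 : Sp n) from rfl, hY0, sgn_zero, one_smul]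
        simp [Data.pol, sgn_zero, two_mul, pow_add]
      · intro w _ hw
        have hne : D.polL.flip (g (w, 0)) ≠ 0 := by
          intro h0
          have h1 : g (w, 0) = 0 := D.pol_sep fun v => by
            have := LinearMap.congr_fun h0 v
            simpa [Data.pol, Data.polL, add_comm] using this
          exact hw (congrArg Prod.fst (g.map_eq_zero_iff.1 h1))
        have := sum_sgn _ hne
        rw [show (∑ u : Sp n, sgn (D.pol u (g (w, 0)))) = 0 from this, zero_smul]
      · simp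
    rw [hP] at hsum
    simp only [mul_zero, zero_mul, Finset.sum_const_zero] at hsum
    have := LinearMap.congr_fun hsum (delta 0)
    have h0 := congrFun this 0
    simp [delta] at h0
    exact two_pow_ne _ h0.symm
  obtain ⟨f₀, hf₀⟩ : ∃ f₀, P f₀ ≠ 0 := by
    by_contra h
    push Not at h
    exact hPne (LinearMap.ext h)
  let v := P f₀
  have hv : ∀ w : Half n, Y (w, 0) 0 v = v := by
    intro w
    show Y (w, 0) 0 (P f₀) = P f₀
    rw [← Module.End.mul_apply]
    congr 1
    simp only [P, Finset.mul_sum, hY]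
    refine Fintype.sum_equiv (Equiv.addLeft w) _ _ fun w' => ?_
    simp [D.β_apply]
  let M : Module.End (ZMod 3) (Half n → ZMod 3) :=
    (Pi.basisFun (ZMod 3) (Half n)).constr (ZMod 3) fun t => sgn (D.C t t) • Y (0, t) 0 v
  have hMd : ∀ t, M (delta t) = sgn (D.C t t) • Y (0, t) 0 v := fun t => by
    have := Module.Basis.constr_basis (Pi.basisFun (ZMod 3) (Half n)) (ZMod 3) (fun t => sgn (D.C t t) • Y (0, t) 0 v) t
    rwa [Pi.basisFun_apply] at this
  have hkey : ∀ b c, M ((D.X b c : Module.End (ZMod 3) (Half n → ZMod 3)) (delta 0)) = Y b c v := by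
    intro b c
    rw [D.X_delta, map_smul, zero_add, hMd, smul_smul, ← sgn_add]
    have e : Y b c = sgn (c + D.β ((0 : Half n), b.2) (b.1, 0)) • (Y (0, b.2) 0 * Y (b.1, 0) 0) := by
      have hYs : ∀ x u d, sgn x • Y u d = Y u (x + d) := fun x u d => by
        rw [← one_mul (Y u d), ← smul_mul_assoc, ← hY0, hY]
        simp
      rw [hY, hYs]
      congr 1
      · simp
      · simp
        exact (show ∀ c x : ZMod 2, c = c + x + x by decide) _ _
    rw [e, LinearMap.smul_apply, Module.End.mul_apply, hv]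
    congr 1
    simp [D.β_apply]
    exact congrArg sgn ((show ∀ c x : ZMod 2, c + x + x = c by decide) _ _)
  have hint : ∀ u c, M * (D.X u c : Module.End (ZMod 3) (Half n → ZMod 3)) = Y u c * M := by
    intro u c
    refine (Pi.basisFun (ZMod 3) (Half n)).ext fun t => ?_
    rw [Pi.basisFun_apply]
    show M ((D.X u c : Module.End (ZMod 3) (Half n → ZMod 3)) (delta t)) = Y u c (M (delta t))
    have ht : delta t = sgn (D.C t t) • (D.X (0, t) 0 : Module.End (ZMod 3) (Half n → ZMod 3)) (delta 0) := by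
      rw [D.X_delta, smul_smul, ← sgn_add]
      simp [ZModModule.add_self, sgn_zero]
    conv_lhs => rw [ht, map_smul, map_smul]
    show sgn _ • M (((D.X u c * D.X (0, t) 0 : (Module.End (ZMod 3) (Half n → ZMod 3))ˣ) :
      Module.End (ZMod 3) (Half n → ZMod 3)) (delta 0)) = _
    rw [D.X_mul, hkey, hMd, map_smul, ← Module.End.mul_apply (Y u c), hY]
  have hinj : Function.Injective M := by
    rw [injective_iff_map_eq_zero]
    intro f hf
    by_contra hne
    obtain ⟨t, ht⟩ : ∃ t, f t ≠ 0 := by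
      by_contra h
      push Not at h
      exact hne (funext h)
    have hproj : ∑ w : Half n, sgn (D.B w t) • (D.X (w, 0) 0 : Module.End (ZMod 3) (Half n → ZMod 3)) f =
        ((2 : ZMod 3) ^ n * f t) • delta t := by
      funext s
      simp only [Finset.sum_apply, Pi.smul_apply, smul_eq_mul, D.X_apply, map_zero, LinearMap.zero_apply,
        add_zero, zero_add, ← mul_assoc, ← sgn_add, ← Finset.sum_mul]
      by_cases hst : s = t
      · subst hst
        simp [delta, ZModModule.add_self, sgn_zero]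
      · rw [D.sum_B t s (Ne.symm hst)]
        simp [delta, hst]
    have h1 := congrArg M hproj
    rw [map_sum, map_smul, hMd] at h1
    simp only [map_smul, ← Module.End.mul_apply M, hint] at h1
    simp only [Module.End.mul_apply, hf, map_zero, smul_zero, Finset.sum_const_zero] at h1
    have h2 : Y (0, t) 0 v = 0 := by
      rcases smul_eq_zero.1 h1.symm with h | h
      · exact absurd h (mul_ne_zero (two_pow_ne n) ht)
      · exact (smul_eq_zero.1 h).resolve_left (sgn_ne_zero _)
    have h3 : v = 0 := by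
      have := congrArg (Y (0, t) (D.β (0, t) (0, t))) h2
      rw [← Module.End.mul_apply, hY, map_zero, ZModModule.add_self] at this
      rw [add_zero, ZModModule.add_self, hY0, sgn_zero, one_smul] at this
      exact this
    exact hf₀ h3
  have hu : IsUnit M := (Module.End.isUnit_iff M).2 (Finite.injective_iff_bijective.1 hinj)
  exact ⟨hu.unit, fun u c => Units.ext (hint u c)⟩

end Cfsg.Agent.Lib.LocalP2.Heis

namespace Cfsg.Agent.Lib.LocalP2.Heis

variable {n : ℕ} (D : Data n)

theorem exists_lam (g : Sp n ≃ₗ[ZMod 2] Sp n) (hg : ∀ u, D.β (g u) (g u) = D.β u u) :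
    ∃ lam : Sp n → ZMod 2, ∀ u v, lam (u + v) = lam u + lam v + D.β (g u) (g v) + D.β u v := by
  classical
  let γ : Sp n →ₗ[ZMod 2] Sp n →ₗ[ZMod 2] ZMod 2 :=
    D.β.compl₁₂ (g : Sp n →ₗ[ZMod 2] Sp n) (g : Sp n →ₗ[ZMod 2] Sp n) + D.β
  have hself : ∀ u, γ u u = 0 := fun u => by
    show D.β (g u) (g u) + D.β u u = 0
    rw [hg, ZModModule.add_self]
  have hsymm : ∀ u v, γ v u = γ u v := fun u v => by
    have h := hself (u + v)
    simp only [map_add, LinearMap.add_apply, hself] at h
    exact (show ∀ a b : ZMod 2, 0 + a + (b + 0) = 0 → a = b by decide) _ _ h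
  let b := Module.finBasis (ZMod 2) (Sp n)
  let α : Sp n →ₗ[ZMod 2] Sp n →ₗ[ZMod 2] ZMod 2 :=
    b.constr (ZMod 2) fun i => b.constr (ZMod 2) fun j => if i < j then γ (b i) (b j) else 0
  have hα : α + α.flip = γ := by
    refine b.ext fun i => b.ext fun j => ?_
    simp only [α, LinearMap.add_apply, LinearMap.flip_apply, Module.Basis.constr_basis]
    rcases lt_trichotomy i j with h | rfl | h
    · simp [h, h.not_gt]
    · simp [hself]
    · simp [h, h.not_gt, hsymm]
  refine ⟨fun u => α u u, fun u v => ?_⟩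
  have h2 : α u v + α v u = D.β (g u) (g v) + D.β u v := LinearMap.congr_fun (LinearMap.congr_fun hα u) v
  simp only [map_add, LinearMap.add_apply]
  exact (show ∀ a b c d e f : ZMod 2, b + c = e + f → a + c + (b + d) = a + d + e + f by decide) _ _ _ _ _ _ h2

theorem Data.X_comm_scalar_shift (u : Sp n) (c d : ZMod 2) : D.X 0 c * D.X u d = D.X u (c + d) := by
  rw [D.X_mul]; simp

/-- The operators normalising the representation and acting on the space as `g k`. -/
def Data.Realises (g : Sp n ≃ₗ[ZMod 2] Sp n) (M : (Module.End (ZMod 3) (Half n → ZMod 3))ˣ) : Prop :=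
  ∀ u, ∃ c, M * D.X u 0 = D.X (g u) c * M

theorem Data.Realises.conj {g : Sp n ≃ₗ[ZMod 2] Sp n} {M : (Module.End (ZMod 3) (Half n → ZMod 3))ˣ}
    (h : D.Realises g M) (u : Sp n) (d : ZMod 2) : ∃ c, M * D.X u d * M⁻¹ = D.X (g u) c := by
  obtain ⟨c, hc⟩ := h u
  refine ⟨d + c, ?_⟩
  rw [D.X_eq u d, ← mul_assoc, ← D.X_scalar_comm, mul_assoc (D.X 0 d), hc, ← mul_assoc,
    mul_inv_cancel_right, D.X_comm_scalar_shift]

theorem Data.Realises.unique {g g' : Sp n ≃ₗ[ZMod 2] Sp n} {M : (Module.End (ZMod 3) (Half n → ZMod 3))ˣ}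
    (h : D.Realises g M) (h' : D.Realises g' M) : g = g' := by
  refine LinearEquiv.ext fun u => ?_
  obtain ⟨c, hc⟩ := h u
  obtain ⟨c', hc'⟩ := h' u
  exact (D.X_injective (mul_right_cancel (hc.symm.trans hc'))).1

theorem Data.Realises.mul {g g' : Sp n ≃ₗ[ZMod 2] Sp n} {M M' : (Module.End (ZMod 3) (Half n → ZMod 3))ˣ}
    (h : D.Realises g M) (h' : D.Realises g' M') : D.Realises (g'.trans g) (M * M') := by
  intro u
  obtain ⟨c', hc'⟩ := h' u
  obtain ⟨c, hc⟩ := h.conj D (g' u) c'
  refine ⟨c, ?_⟩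
  rw [mul_assoc, hc', ← mul_assoc, ← mul_assoc, LinearEquiv.trans_apply, ← hc, inv_mul_cancel_right]

theorem Data.Realises.inv {g : Sp n ≃ₗ[ZMod 2] Sp n} {M : (Module.End (ZMod 3) (Half n → ZMod 3))ˣ}
    (h : D.Realises g M) : D.Realises g.symm M⁻¹ := by
  intro u
  obtain ⟨c, hc⟩ := h.conj D (g.symm u) 0
  rw [g.apply_symm_apply] at hc
  refine ⟨c, ?_⟩
  have hu : D.X u 0 = D.X 0 c * (M * D.X (g.symm u) 0 * M⁻¹) := by
    rw [hc, D.X_comm_scalar_shift, ZModModule.add_self]
  rw [hu, ← mul_assoc, ← D.X_scalar_comm]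
  conv_rhs => rw [D.X_eq]
  group

theorem Data.realises_X (u : Sp n) (c : ZMod 2) : D.Realises (LinearEquiv.refl _ _) (D.X u c) := by
  intro v
  refine ⟨D.pol u v, ?_⟩
  rw [D.X_swap, LinearEquiv.refl_apply, ← mul_assoc, D.X_comm_scalar_shift, add_zero]

theorem Data.eq_X_of_realises {M : (Module.End (ZMod 3) (Half n → ZMod 3))ˣ}
    (h : D.Realises (LinearEquiv.refl _ _) M) : ∃ u c, M = D.X u c := by
  choose c hc using h
  simp only [LinearEquiv.refl_apply] at hc
  have hadd : ∀ u v, c (u + v) = c u + c v := by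
    intro u v
    have h1 : M * (D.X u 0 * D.X v 0) = D.X u (c u) * D.X v (c v) * M := by
      rw [← mul_assoc, hc u, mul_assoc, hc v, mul_assoc]
    rw [D.X_mul, D.X_mul, D.X_eq (u + v) (0 + 0 + _), ← mul_assoc, ← D.X_scalar_comm, mul_assoc, hc, ← mul_assoc,
      D.X_comm_scalar_shift] at h1
    have h2 := (D.X_injective (mul_right_cancel h1)).2
    exact (show ∀ a b x y : ZMod 2, 0 + 0 + a + b = x + y + a → b = x + y by decide) _ _ _ _ h2
  obtain ⟨u₀, hu₀⟩ := D.exists_pol_eq (AddMonoidHom.toZModLinearMap 2 (AddMonoidHom.mk' c hadd))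
  have hN : ∀ u, (D.X u₀ 0)⁻¹ * M * D.X u 0 = D.X u 0 * ((D.X u₀ 0)⁻¹ * M) := by
    intro u
    rw [mul_assoc, hc u, ← mul_assoc, ← mul_assoc]
    congr 1
    rw [inv_mul_eq_iff_eq_mul, ← mul_assoc, eq_mul_inv_iff_mul_eq, D.X_swap u₀ u, ← mul_assoc, D.X_comm_scalar_shift,
      add_zero]
    rw [show D.pol u₀ u = c u from hu₀ u]
  obtain ⟨a, ha⟩ := D.scalar_of_commute (((D.X u₀ 0)⁻¹ * M : (Module.End (ZMod 3) (Half n → ZMod 3))ˣ) :
      Module.End (ZMod 3) (Half n → ZMod 3)) fun u => congrArg Units.val (hN u)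
  have ha0 : a ≠ 0 := by
    rintro rfl
    rw [zero_smul] at ha
    exact ((D.X u₀ 0)⁻¹ * M).ne_zero ha
  obtain ⟨d, hd⟩ : ∃ d : ZMod 2, sgn d = a := (show ∀ a : ZMod 3, a ≠ 0 → ∃ d : ZMod 2, sgn d = a by decide) a ha0
  refine ⟨u₀, d, ?_⟩
  have h3 : (D.X u₀ 0)⁻¹ * M = D.X 0 d := Units.ext (by rw [ha, D.X_scalar, hd])
  rw [inv_mul_eq_iff_eq_mul.1 h3, D.X_mul]
  simp

end Cfsg.Agent.Lib.LocalP2.Heis
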